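import Mathlib
import Cfsg.Agent.Lib.Helper1.Coprime
import Cfsg.Agent.Lib.Helper1.Hall
import Cfsg.Agent.Lib.Helper1.Fitting
import Cfsg.Agent.Lib.Helper1.Cores
import Cfsg.Agent.Lib.Helper22.SupLemmas
import Cfsg.Agent.S0044

/-!
# Solvable groups with one class of involutions: basic facts
-/

set_option autoImplicit false

namespace Cfsg.Agent.Lib.Helper63.OneClass

variable {G : Type*} [Group G]

/-- a nontrivial `2`-element has a power which is an involution -/
theorem exists_invol_pow {x : G} (hx : x ≠ 1) (h : ∃ k : ℕ, x ^ 2 ^ k = 1) :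
    ∃ j : ℕ, x ^ j ≠ 1 ∧ (x ^ j) ^ 2 = 1 := by
  classical
  have hk0 : Nat.find h ≠ 0 := by
    intro h0
    have := Nat.find_spec h
    rw [h0] at this
    simp at this
    exact hx this
  obtain ⟨m, hm⟩ := Nat.exists_eq_succ_of_ne_zero hk0
  refine ⟨2 ^ m, ?_, ?_⟩
  · exact Nat.find_min h (by omega)
  · have := Nat.find_spec h
    rw [hm, pow_succ, pow_mul] at this
    exact this

/-- an element of odd order which is a `2`-element is trivial -/
theorem eq_one_of_odd_of_two_pow {x : G} (ho : Odd (orderOf x)) (h : ∃ k : ℕ, x ^ 2 ^ k = 1) :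
    x = 1 := by
  obtain ⟨k, hk⟩ := h
  have h1 : orderOf x ∣ 2 ^ k := orderOf_dvd_of_pow_eq_one hk
  have h2 : (orderOf x).Coprime (2 ^ k) := Nat.Coprime.pow_right k (Nat.coprime_two_right.mpr ho)
  have h3 : orderOf x = 1 := Nat.Coprime.eq_one_of_dvd h2 h1
  exact orderOf_eq_one_iff.mp h3

/-- a complement `K` of odd order to `S` in `N_G(S)`, transitive on the involutions -/
theorem exists_K [Finite G] (S : Sylow 2 G) (V : Subgroup G)
    (hV : ∀ x : G, x ∈ V ↔ x ^ 2 = 1)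
    (hconj : ∀ x y : G, x ≠ 1 → x ^ 2 = 1 → y ≠ 1 → y ^ 2 = 1 → IsConj x y)
    (hSV : ∀ s ∈ S, ∀ v ∈ V, s * v = v * s) :
    ∃ K : Subgroup G, K ≤ Subgroup.normalizer ((S : Subgroup G) : Set G) ∧ Odd (Nat.card K) ∧
      ∀ u ∈ V, ∀ v ∈ V, u ≠ 1 → v ≠ 1 → ∃ k ∈ K, k * u * k⁻¹ = v := by
  have : Fact (Nat.Prime 2) := ⟨Nat.prime_two⟩
  have hdvd : (S : Subgroup G).relIndex (Subgroup.normalizer ((S : Subgroup G) : Set G)) ∣
      (S : Subgroup G).index := Dvd.intro _ (Subgroup.relIndex_mul_index Subgroup.le_normalizer)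
  obtain ⟨K, hKle, hKcard, hKsup⟩ := Cfsg.Agent.Lib.Helper1.sz_exists_rel (S : Subgroup G)
    (Subgroup.normalizer ((S : Subgroup G) : Set G)) Subgroup.le_normalizer le_rfl
    (Nat.Coprime.coprime_dvd_right hdvd S.card_coprime_index)
  refine ⟨K, hKle, ?_, ?_⟩
  · rw [hKcard, ← Nat.not_even_iff_odd, even_iff_two_dvd]
    intro h
    exact S.not_dvd_index (h.trans hdvd)
  · intro u hu v hv hu1 hv1
    obtain ⟨c, hc⟩ := isConj_iff.mp (hconj u v hu1 ((hV u).mp hu) hv1 ((hV v).mp hv))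
    have hcen : ∀ w ∈ V, w ∈ Subgroup.centralizer ((S : Subgroup G) : Set G) := by
      intro w hw
      rw [Subgroup.mem_centralizer_iff]
      intro s hs
      exact hSV s hs w hw
    obtain ⟨n, hn, hn'⟩ := S.conj_eq_normalizer_conj_of_mem_centralizer u c⁻¹ (hcen u hu)
      (by rw [inv_inv, hc]; exact hcen v hv)
    rw [inv_inv, hc] at hn'
    replace hn : n ∈ Subgroup.normalizer ((S : Subgroup G) : Set G) := hn
    rw [← hKsup, sup_comm, Cfsg.Agent.Lib.Helper22.mem_sup_of_le_normalizer hKle] at hn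
    obtain ⟨s, hs, k, hk, rfl⟩ := hn
    refine ⟨k⁻¹, K.inv_mem hk, ?_⟩
    rw [hn']
    have h1 : s⁻¹ * u * s = u := by
      rw [mul_assoc, ← hSV s hs u hu]; group
    calc k⁻¹ * u * k⁻¹⁻¹ = k⁻¹ * (s⁻¹ * u * s) * k := by rw [h1, inv_inv]
      _ = (s * k)⁻¹ * u * (s * k) := by group

theorem fitting_eq_pCore_two [Finite G]
    (hO : ∀ N : Subgroup G, N.Normal → Odd (Nat.card N) → N = ⊥) :
    Cfsg.fittingSubgroup G = Cfsg.pCore 2 G := by
  rw [Cfsg.Agent.Lib.Helper1.fittingSubgroup_eq_iSup_pCore]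
  apply le_antisymm
  · refine iSup_le fun p => ?_
    by_cases hp : (p : ℕ) = 2
    · rw [hp]
    · have : Fact (p : ℕ).Prime := ⟨p.2⟩
      have h1 : Cfsg.pCore (p : ℕ) G = ⊥ := by
        apply hO _ (Cfsg.Agent.Lib.Helper1.pCore_normal _)
        obtain ⟨n, hn⟩ := (IsPGroup.iff_card).mp (Cfsg.Agent.Lib.Helper1.pCore_isPGroup (G := G) (p : ℕ))
        rw [hn]
        exact (p.2.odd_of_ne_two hp).pow
      rw [h1]
      exact bot_le
  · exact le_iSup (fun p : Nat.Primes => Cfsg.pCore (p : ℕ) G) ⟨2, Nat.prime_two⟩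

theorem exists_odd_not_centralizing [Finite G] (hsol : Group.IsSolvable G)
    (hO : ∀ N : Subgroup G, N.Normal → Odd (Nat.card N) → N = ⊥)
    (S : Sylow 2 G) (hSn : ¬ (S : Subgroup G).Normal) :
    ∃ y ∈ Subgroup.normalClosure ((S : Subgroup G) : Set G), Odd (orderOf y) ∧
      ∃ x ∈ Cfsg.pCore 2 G, x * y ≠ y * x := by
  by_contra hcon
  push Not at hcon
  apply hSn
  have h1 : ∀ y ∈ Subgroup.normalClosure ((S : Subgroup G) : Set G), Odd (orderOf y) → y = 1 := by
    intro y hy ho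
    have h2 : y ∈ Subgroup.centralizer (Cfsg.fittingSubgroup G : Set G) := by
      rw [fitting_eq_pCore_two hO, Subgroup.mem_centralizer_iff]
      intro x hx
      exact hcon y hy ho x hx
    have h3 := Cfsg.Agent.S0044.result h2
    rw [fitting_eq_pCore_two hO] at h3
    apply eq_one_of_odd_of_two_pow ho
    obtain ⟨k, hk⟩ := Cfsg.Agent.Lib.Helper1.pCore_isPGroup (G := G) 2 ⟨y, h3⟩
    exact ⟨k, by simpa using congrArg Subtype.val hk⟩
  have h2 : IsPGroup 2 (Subgroup.normalClosure ((S : Subgroup G) : Set G)) := by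
    rintro ⟨g, hg⟩
    obtain ⟨k, m, hm, hkm⟩ := Nat.exists_eq_two_pow_mul_odd (orderOf_pos g).ne'
    refine ⟨k, Subtype.ext ?_⟩
    show g ^ 2 ^ k = 1
    apply h1 _ (Subgroup.pow_mem _ hg _)
    rw [orderOf_pow_of_dvd (by positivity) (Dvd.intro _ hkm.symm), hkm,
      Nat.mul_div_cancel_left _ (by positivity)]
    exact hm
  have h3 := S.is_maximal' h2 Subgroup.le_normalClosure
  rw [← h3]
  exact Subgroup.normalClosure_normal

end Cfsg.Agent.Lib.Helper63.OneClass
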