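import Mathlib

/-!
# The conjugation action of `G` on a section `D / V` (`V ≤ D` normal in `G`)
-/

set_option autoImplicit false
set_option linter.unusedSectionVars false

namespace Cfsg.Agent.Lib.Helper63.OneClass

variable {G : Type*} [Group G] (D V : Subgroup G) [hD : D.Normal] [hV : V.Normal]

theorem map_conjNormal (g : G) :
    (V.subgroupOf D).map ((MulAut.conjNormal g : MulAut ↥D) : ↥D →* ↥D) = V.subgroupOf D := by
  ext x
  simp only [Subgroup.mem_map, Subgroup.mem_subgroupOf]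
  constructor
  · rintro ⟨y, hy, rfl⟩
    have : (((MulAut.conjNormal g : MulAut ↥D) y : ↥D) : G) = g * y * g⁻¹ :=
      MulAut.conjNormal_apply g y
    show (((MulAut.conjNormal g : MulAut ↥D) y : ↥D) : G) ∈ V
    rw [this]
    exact hV.conj_mem _ hy g
  · intro hx
    refine ⟨(MulAut.conjNormal g⁻¹ : MulAut ↥D) x, ?_, ?_⟩
    · rw [MulAut.conjNormal_apply]
      exact hV.conj_mem _ hx g⁻¹
    · apply Subtype.ext
      show (((MulAut.conjNormal g : MulAut ↥D) ((MulAut.conjNormal g⁻¹ : MulAut ↥D) x) : ↥D) : G) = x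
      rw [MulAut.conjNormal_apply, MulAut.conjNormal_apply]
      group

/-- the action of `G` on `D / V` by conjugation -/
noncomputable def rho : G →* MulAut (↥D ⧸ V.subgroupOf D) where
  toFun g := QuotientGroup.congr _ _ (MulAut.conjNormal g) (map_conjNormal D V g)
  map_one' := by
    ext x
    induction x using QuotientGroup.induction_on with
    | H x => simp
  map_mul' a b := by
    ext x
    induction x using QuotientGroup.induction_on with
    | H x => simp

theorem rho_mk (g : G) (x : ↥D) :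
    rho D V g (QuotientGroup.mk x) = QuotientGroup.mk ((MulAut.conjNormal g : MulAut ↥D) x) := rfl

theorem rho_mk' (g : G) (x : G) (hx : x ∈ D) :
    rho D V g (QuotientGroup.mk (⟨x, hx⟩ : ↥D)) =
      QuotientGroup.mk (⟨g * x * g⁻¹, hD.conj_mem x hx g⟩ : ↥D) := by
  rw [rho_mk]
  congr 1

theorem mk_eq_one_iff (x : ↥D) :
    (QuotientGroup.mk x : ↥D ⧸ V.subgroupOf D) = 1 ↔ (x : G) ∈ V := by
  rw [QuotientGroup.eq_one_iff, Subgroup.mem_subgroupOf]

theorem mk_eq_mk_iff (x y : ↥D) :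
    (QuotientGroup.mk x : ↥D ⧸ V.subgroupOf D) = QuotientGroup.mk y ↔ (x : G)⁻¹ * y ∈ V := by
  rw [QuotientGroup.eq, Subgroup.mem_subgroupOf]
  simp

theorem rho_eq_one_iff (g : G) : rho D V g = 1 ↔ ∀ x ∈ D, g * x * g⁻¹ * x⁻¹ ∈ V := by
  constructor
  · intro h x hx
    have h1 := congrArg (fun f : MulAut (↥D ⧸ V.subgroupOf D) => f (QuotientGroup.mk ⟨x, hx⟩)) h
    simp only [MulAut.one_apply] at h1
    rw [rho_mk', mk_eq_mk_iff] at h1
    have h2 := hV.conj_mem _ (V.inv_mem h1) (g * x * g⁻¹)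
    have e : g * x * g⁻¹ * ((g * x * g⁻¹)⁻¹ * x)⁻¹ * (g * x * g⁻¹)⁻¹ = g * x * g⁻¹ * x⁻¹ := by group
    rw [e] at h2
    exact h2
  · intro h
    ext w
    induction w using QuotientGroup.induction_on with
    | H x =>
      obtain ⟨x, hx⟩ := x
      rw [rho_mk', MulAut.one_apply, mk_eq_mk_iff]
      have h2 := hV.conj_mem _ (V.inv_mem (h x hx)) (g * x * g⁻¹)⁻¹
      have e : (g * x * g⁻¹)⁻¹ * (g * x * g⁻¹ * x⁻¹)⁻¹ * ((g * x * g⁻¹)⁻¹)⁻¹ = (g * x * g⁻¹)⁻¹ * x := by
        group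
      rw [e] at h2
      exact h2

end Cfsg.Agent.Lib.Helper63.OneClass
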