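import Mathlib
import Cfsg.Agent.Lib.Helper63.OCQuot
import Cfsg.Agent.Lib.Helper63.OCBasic
import Cfsg.Agent.Lib.Helper86.OneClassE
import Cfsg.Agent.Lib.Helper63.PLength
import Cfsg.Agent.S3773

/-!
# Solvable groups with one class of involutions: the critical section `D / V`
-/

set_option autoImplicit false
set_option linter.unusedSectionVars false

namespace Cfsg.Agent.Lib.Helper63.OneClass

open scoped commutatorElement

variable {G : Type*} [Group G]

theorem trick {y x c : G} (hc : y * x * y⁻¹ = c * x) (hcy : c * y = y * c) (hc2 : c ^ 2 = 1)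
    (ho : Odd (orderOf y)) : c = 1 := by
  have hcomm : Commute c y := hcy
  have h1 : ∀ n : ℕ, y ^ n * x * (y ^ n)⁻¹ = c ^ n * x := by
    intro n
    induction n with
    | zero => simp
    | succ n ih =>
      calc y ^ (n + 1) * x * (y ^ (n + 1))⁻¹ = y * (y ^ n * x * (y ^ n)⁻¹) * y⁻¹ := by
            rw [pow_succ']; group
        _ = y * (c ^ n * x) * y⁻¹ := by rw [ih]
        _ = (y * c ^ n) * x * y⁻¹ := by group
        _ = (c ^ n * y) * x * y⁻¹ := by rw [(hcomm.pow_left n).eq]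
        _ = c ^ n * (y * x * y⁻¹) := by group
        _ = c ^ (n + 1) * x := by rw [hc, pow_succ]; group
  have h2 := h1 (orderOf y)
  rw [pow_orderOf_eq_one] at h2
  have h3 : c ^ orderOf y = 1 := by
    have : c ^ orderOf y * x = 1 * x := by rw [← h2]; group
    exact mul_right_cancel this
  obtain ⟨m, hm⟩ := ho
  rw [hm, pow_succ, pow_mul, hc2, one_pow, one_mul] at h3
  exact h3

theorem ds_normal (H : Subgroup G) [hH : H.Normal] (n : ℕ) : (ds H n).Normal := by
  induction n with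
  | zero => exact hH
  | succ n ih =>
    show (⁅ds H n, ds H n⁆).Normal
    exact Subgroup.commutator_normal _ _

theorem exists_ds_step (hsol : Group.IsSolvable G) (H N : Subgroup G) (hHN : ¬ H ≤ N) :
    ∃ n : ℕ, ¬ ds H n ≤ N ∧ ⁅ds H n, ds H n⁆ ≤ N := by
  classical
  have hex : ∃ n, ds H n ≤ N := by
    obtain ⟨n, hn⟩ := hsol.solvable
    refine ⟨n, ?_⟩
    have h1 := ds_mono (le_top : H ≤ ⊤) n
    rw [ds_top, hn] at h1
    exact h1.trans bot_le
  have h0 : Nat.find hex ≠ 0 := by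
    intro h0
    have := Nat.find_spec hex
    rw [h0] at this
    exact hHN this
  obtain ⟨m, hm⟩ := Nat.exists_eq_succ_of_ne_zero h0
  refine ⟨m, Nat.find_min hex (by omega), ?_⟩
  have := Nat.find_spec hex
  rw [hm] at this
  exact this

/-- the configuration of a critical section -/
structure Sec (S : Sylow 2 G) (V D K : Subgroup G) : Prop where
  hV : ∀ x : G, x ∈ V ↔ x ^ 2 = 1
  hV3 : 3 ≤ Nat.card V
  hSV : ∀ s ∈ S, ∀ v ∈ V, s * v = v * s
  hKn : K ≤ Subgroup.normalizer ((S : Subgroup G) : Set G)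
  hKodd : Odd (Nat.card K)
  hKtr : ∀ u ∈ V, ∀ v ∈ V, u ≠ 1 → v ≠ 1 → ∃ k ∈ K, k * u * k⁻¹ = v
  hVD : V ≤ D
  hsq : ∀ x ∈ D, x ^ 2 ∈ V
  hcen : ∀ x ∈ D, ∀ v ∈ V, x * v = v * x
  hmin : ∀ X : Subgroup G, X.Normal → X ≤ D → X ≠ D → X ≤ V
  hy : ∃ y ∈ Subgroup.normalClosure ((S : Subgroup G) : Set G), Odd (orderOf y) ∧
    ∃ x ∈ D, x * y ≠ y * x

variable {S : Sylow 2 G} {V D K : Subgroup G} [hDn : D.Normal] [hVn : V.Normal]

/-- the squaring map `D / V → V` -/
noncomputable def Sec.Q (h : Sec S V D K) : ↥D ⧸ V.subgroupOf D → ↥V :=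
  Quotient.lift (fun x : ↥D => (⟨(x : G) ^ 2, h.hsq x x.2⟩ : ↥V)) (by
    intro a b hab
    have h1 : (a : G)⁻¹ * b ∈ V := by
      have := QuotientGroup.leftRel_apply.mp hab
      simpa [Subgroup.mem_subgroupOf] using this
    apply Subtype.ext
    show (a : G) ^ 2 = (b : G) ^ 2
    set v := (a : G)⁻¹ * b with hv
    have hb : (b : G) = a * v := by rw [hv]; group
    have hv2 : v * v = 1 := by rw [← pow_two]; exact (h.hV v).mp h1
    rw [hb, pow_two, pow_two]
    calc (a : G) * a = a * a * (v * v) := by rw [hv2, mul_one]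
      _ = a * (a * v) * v := by group
      _ = a * (v * a) * v := by rw [h.hcen a a.2 v h1]
      _ = a * v * (a * v) := by group)

theorem Sec.Q_mk (h : Sec S V D K) (x : ↥D) :
    ((h.Q (QuotientGroup.mk x) : ↥V) : G) = (x : G) ^ 2 := rfl

theorem Sec.Q_rho (h : Sec S V D K) (g : G) (w : ↥D ⧸ V.subgroupOf D) :
    ((h.Q (rho D V g w) : ↥V) : G) = g * (h.Q w : ↥V) * g⁻¹ := by
  induction w using QuotientGroup.induction_on with
  | H x =>
    rw [rho_mk, Sec.Q_mk, Sec.Q_mk, MulAut.conjNormal_apply, pow_two, pow_two]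
    group

theorem Sec.sq_one (h : Sec S V D K) (w : ↥D ⧸ V.subgroupOf D) : w * w = 1 := by
  induction w using QuotientGroup.induction_on with
  | H x =>
    rw [← QuotientGroup.mk_mul, mk_eq_one_iff]
    have := h.hsq x x.2
    rw [pow_two] at this
    exact this

theorem Sec.Q_eq_one (h : Sec S V D K) (w : ↥D ⧸ V.subgroupOf D) (hw : h.Q w = h.Q 1) : w = 1 := by
  induction w using QuotientGroup.induction_on with
  | H x =>
    have h1 := congrArg (fun v : ↥V => (v : G)) hw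
    have h2 : ((h.Q 1 : ↥V) : G) = 1 := by
      have := h.Q_mk (1 : ↥D)
      simpa using this
    simp only [h.Q_mk, h2] at h1
    rw [mk_eq_one_iff]
    exact (h.hV _).mpr h1

theorem Sec.L_le (h : Sec S V D K) :
    Subgroup.normalClosure ((S : Subgroup G) : Set G) ≤ Subgroup.centralizer (V : Set G) := by
  apply Subgroup.normalClosure_le_normal
  intro s hs
  rw [SetLike.mem_coe, Subgroup.mem_centralizer_iff]
  intro v hv
  exact (h.hSV s hs v hv).symm

theorem Sec.exists_not_mem (h : Sec S V D K) : ∃ x ∈ D, x ∉ V := by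
  obtain ⟨y, hy, -, x, hx, hxy⟩ := h.hy
  refine ⟨x, hx, fun hxV => hxy ?_⟩
  exact Subgroup.mem_centralizer_iff.mp (h.L_le hy) x hxV

theorem Sec.Q_ne_one (h : Sec S V D K) {w : ↥D ⧸ V.subgroupOf D} (hw : w ≠ 1) :
    ((h.Q w : ↥V) : G) ≠ 1 := by
  intro h1
  apply hw
  apply h.Q_eq_one
  apply Subtype.ext
  rw [h1]
  have := h.Q_mk (1 : ↥D)
  simpa using this.symm

theorem Sec.Ktr (h : Sec S V D K) (w w' : ↥D ⧸ V.subgroupOf D) (hw : w ≠ 1) (hw' : w' ≠ 1) :
    ∃ k ∈ K.map (rho D V), h.Q (k w) = h.Q w' := by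
  obtain ⟨k, hk, hk'⟩ := h.hKtr _ (h.Q w).2 _ (h.Q w').2 (h.Q_ne_one hw) (h.Q_ne_one hw')
  refine ⟨rho D V k, Subgroup.mem_map_of_mem _ hk, Subtype.ext ?_⟩
  rw [h.Q_rho, hk']

theorem Sec.exists_ne_one (h : Sec S V D K) : ∃ w : ↥D ⧸ V.subgroupOf D, w ≠ 1 := by
  obtain ⟨x, hx, hxV⟩ := h.exists_not_mem
  refine ⟨QuotientGroup.mk ⟨x, hx⟩, fun h1 => hxV ?_⟩
  exact (mk_eq_one_iff D V _).mp h1

theorem Sec.Q_surj (h : Sec S V D K) : Function.Surjective h.Q := by
  intro v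
  by_cases hv : (v : G) = 1
  · refine ⟨1, Subtype.ext ?_⟩
    rw [hv]
    have := h.Q_mk (1 : ↥D)
    simpa using this
  · obtain ⟨w, hw⟩ := h.exists_ne_one
    obtain ⟨k, hk, hk'⟩ := h.hKtr _ (h.Q w).2 _ v.2 (h.Q_ne_one hw) hv
    refine ⟨rho D V k w, Subtype.ext ?_⟩
    rw [h.Q_rho, hk']

theorem Sec.card_W [Finite G] (h : Sec S V D K) :
    Nat.card (↥D ⧸ V.subgroupOf D) ≤ Nat.card V ^ 2 := by
  have c : Cfsg.Agent.S3773.Cfg (V.subgroupOf D) := by
    refine ⟨?_, ?_, ?_⟩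
    · intro t ht x
      apply Subtype.ext
      exact h.hcen x x.2 t (Subgroup.mem_subgroupOf.mp ht)
    · intro t ht
      apply Subtype.ext
      have := (h.hV t).mp (Subgroup.mem_subgroupOf.mp ht)
      rw [pow_two] at this
      exact this
    · intro x
      rw [Subgroup.mem_subgroupOf]
      have := h.hsq x x.2
      rw [pow_two] at this
      exact this
  have hstar := Cfsg.Agent.S3773.star c
  have hT : Nat.card (V.subgroupOf D) = Nat.card V :=
    Nat.card_congr (Subgroup.subgroupOfEquivOfLe h.hVD).toEquiv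
  have hJ : Nat.card {x : ↥D // x ^ 2 = 1} = Nat.card V := by
    refine Nat.card_congr ⟨fun x => ⟨(x.1 : G), (h.hV _).mpr (by
      have := congrArg Subtype.val x.2
      simpa using this)⟩, fun v => ⟨⟨v.1, h.hVD v.2⟩, Subtype.ext ((h.hV _).mp v.2)⟩, ?_, ?_⟩
    · intro x; rfl
    · intro v; rfl
  have hZ : Nat.card (V.subgroupOf D) ≤ Nat.card (Subgroup.center ↥D) := by
    apply Subgroup.card_le_of_le
    intro t ht
    rw [Subgroup.mem_center_iff]
    intro x
    exact c.central t ht x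
  have hD : Nat.card ↥D = Nat.card (↥D ⧸ V.subgroupOf D) * Nat.card (V.subgroupOf D) :=
    Subgroup.card_eq_card_quotient_mul_card_subgroup _
  rw [hT] at hZ hD hstar
  rw [hJ, hD] at hstar
  have hq : 0 < Nat.card V := Nat.card_pos
  set q := Nat.card V
  set n := Nat.card (↥D ⧸ V.subgroupOf D)
  have h1 : n * q * q ≤ (q * q) ^ 2 := le_trans (Nat.mul_le_mul_left _ hZ) hstar
  have h2 : n * (q * q) ≤ q ^ 2 * (q * q) := by nlinarith
  exact Nat.le_of_mul_le_mul_right h2 (by positivity)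

theorem Sec.S_not_le (h : Sec S V D K) : ∃ τ ∈ S, rho D V τ ≠ 1 := by
  by_contra hcon
  push Not at hcon
  have h1 : Subgroup.normalClosure ((S : Subgroup G) : Set G) ≤ (rho D V).ker := by
    apply Subgroup.normalClosure_le_normal
    intro s hs
    exact MonoidHom.mem_ker.mpr (hcon s hs)
  obtain ⟨y, hy, ho, x, hx, hxy⟩ := h.hy
  apply hxy
  have h2 := (rho_eq_one_iff D V y).mp (MonoidHom.mem_ker.mp (h1 hy)) x hx
  have h3 : y * x * y⁻¹ * x⁻¹ = 1 := by
    apply trick (y := y) (x := x) _ _ ((h.hV _).mp h2) ho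
    · group
    · exact Subgroup.mem_centralizer_iff.mp (h.L_le hy) _ h2
  calc x * y = (y * x * y⁻¹ * x⁻¹)⁻¹ * (y * x) := by group
    _ = y * x := by rw [h3]; group

theorem Sec.exists_third (h : Sec S V D K) (u : G) : ∃ v ∈ V, v ≠ 1 ∧ v ≠ u := by
  classical
  by_contra hcon
  push Not at hcon
  have h1 : Nat.card V ≤ Nat.card Bool := by
    apply Nat.card_le_card_of_injective (fun v : V => decide ((v : G) = 1))
    intro a b hab
    apply Subtype.ext
    have e : decide ((a : G) = 1) = decide ((b : G) = 1) := hab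
    have e' : (a : G) = 1 ↔ (b : G) = 1 := by simpa using e
    by_cases ha : (a : G) = 1
    · rw [ha, e'.mp ha]
    · have hb : (b : G) ≠ 1 := fun hb => ha (e'.mpr hb)
      rw [hcon a a.2 ha, hcon b b.2 hb]
  have := h.hV3
  simp at h1
  omega

theorem Sec.hS3 [Finite G] (hsol : Group.IsSolvable G) (h : Sec S V D K) :
    ∃ s ∈ (S : Subgroup G).map (rho D V), ∃ t ∈ (S : Subgroup G).map (rho D V),
      s ≠ 1 ∧ t ≠ 1 ∧ s ≠ t := by
  by_contra hcon
  push Not at hcon
  obtain ⟨τ, hτ, hτ1⟩ := h.S_not_le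
  have : Fact (Nat.Prime 2) := ⟨Nat.prime_two⟩
  have hcop : (Nat.card K).Coprime (Nat.card (S : Subgroup G)) := by
    obtain ⟨n, hn⟩ := (IsPGroup.iff_card).mp S.isPGroup'
    rw [hn]
    exact Nat.Coprime.pow_right n (Nat.coprime_two_right.mpr h.hKodd)
  have hAD : K ≤ Subgroup.normalizer (((S : Subgroup G) ⊓ (rho D V).ker : Subgroup G) : Set G) := by
    intro k hk
    rw [Subgroup.mem_normalizer_iff]
    intro x
    have hkS := Subgroup.mem_normalizer_iff.mp (h.hKn hk) x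
    constructor
    · rintro ⟨h1, h2⟩
      exact ⟨hkS.mp h1, (MonoidHom.normal_ker (rho D V)).conj_mem _ h2 k⟩
    · rintro ⟨h1, h2⟩
      refine ⟨hkS.mpr h1, ?_⟩
      have := (MonoidHom.normal_ker (rho D V)).conj_mem _ h2 k⁻¹
      have e : k⁻¹ * (k * x * k⁻¹) * k⁻¹⁻¹ = x := by group
      rwa [e] at this
  have hx : ∀ a ∈ K, τ⁻¹ * a * τ * a⁻¹ ∈ (S : Subgroup G) ⊓ (rho D V).ker := by
    intro a ha
    have h1 : a * τ * a⁻¹ ∈ (S : Subgroup G) := (Subgroup.mem_normalizer_iff.mp (h.hKn ha) τ).mp hτ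
    have e : τ⁻¹ * a * τ * a⁻¹ = τ⁻¹ * (a * τ * a⁻¹) := by group
    refine Subgroup.mem_inf.mpr ⟨?_, ?_⟩
    · rw [e]; exact mul_mem (inv_mem hτ) h1
    · rw [MonoidHom.mem_ker, e, map_mul, map_inv]
      have h2 : rho D V (a * τ * a⁻¹) ≠ 1 := by
        intro h3
        apply hτ1
        rw [map_mul, map_mul, map_inv] at h3
        have : rho D V τ = (rho D V a)⁻¹ * (rho D V a * rho D V τ * (rho D V a)⁻¹) * rho D V a := by
          group
        rw [this, h3]; group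
      rw [hcon _ (Subgroup.mem_map_of_mem _ h1) _ (Subgroup.mem_map_of_mem _ hτ) h2 hτ1]
      group
  obtain ⟨d, hd, hn⟩ := Cfsg.Agent.Lib.Helper1.exists_fixed_in_coset K (S : Subgroup G)
    ((S : Subgroup G) ⊓ (rho D V).ker) h.hKn hcop (Or.inl inferInstance) inf_le_left hAD τ hτ hx
  have hn1 : τ * d ≠ 1 := by
    intro h1
    apply hτ1
    have := congrArg (rho D V) h1
    rw [map_mul, MonoidHom.mem_ker.mp hd.2, mul_one, map_one] at this
    exact this
  obtain ⟨j, hj1, hj2⟩ := exists_invol_pow hn1 (by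
    obtain ⟨k, hk⟩ := S.isPGroup' ⟨τ * d, hn.1⟩
    exact ⟨k, by simpa using congrArg Subtype.val hk⟩)
  obtain ⟨v, hv, hv1, hvu⟩ := h.exists_third ((τ * d) ^ j)
  obtain ⟨k, hk, hk'⟩ := h.hKtr _ ((h.hV _).mpr hj2) v hv hj1 hv1
  apply hvu
  rw [← hk']
  have h5 : (τ * d) ^ j ∈ Subgroup.centralizer (K : Set G) := Subgroup.pow_mem _ hn.2 j
  rw [Subgroup.mem_centralizer_iff.mp h5 k hk]
  group

theorem ds_le (H : Subgroup G) [hH : H.Normal] (n : ℕ) : ds H n ≤ H := by
  induction n with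
  | zero => exact le_rfl
  | succ n ih =>
    have := ds_normal H n
    exact (Subgroup.commutator_le_left (ds H n) (ds H n)).trans ih

theorem Sec.odd_of_comm [Finite G] (h : Sec S V D K) (A : Subgroup G) [hA : A.Normal]
    (hc : ∀ y ∈ A.map (rho D V), ∀ y' ∈ A.map (rho D V), y * y' = y' * y) :
    Odd (Nat.card (A.map (rho D V))) := by
  have : Fact (Nat.Prime 2) := ⟨Nat.prime_two⟩
  by_contra hodd
  rw [Nat.not_odd_iff_even, even_iff_two_dvd] at hodd
  have hfin : Finite (A.map (rho D V)) := by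
    have : Finite A := inferInstance
    exact Finite.of_surjective (fun a : A => (⟨rho D V a, Subgroup.mem_map_of_mem _ a.2⟩ :
      A.map (rho D V))) (by
        rintro ⟨_, a, ha, rfl⟩
        exact ⟨⟨a, ha⟩, rfl⟩)
  obtain ⟨a0, ha0⟩ := exists_prime_orderOf_dvd_card' (G := A.map (rho D V)) 2 hodd
  -- the elements of square one
  let Y2 : Subgroup (MulAut (↥D ⧸ V.subgroupOf D)) :=
    { carrier := {a | a ∈ A.map (rho D V) ∧ a * a = 1}
      one_mem' := ⟨one_mem _, by simp⟩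
      mul_mem' := by
        rintro a b ⟨ha, ha2⟩ ⟨hb, hb2⟩
        refine ⟨mul_mem ha hb, ?_⟩
        calc a * b * (a * b) = a * (b * a) * b := by group
          _ = a * (a * b) * b := by rw [hc b hb a ha]
          _ = (a * a) * (b * b) := by group
          _ = 1 := by rw [ha2, hb2, one_mul]
      inv_mem' := by
        rintro a ⟨ha, ha2⟩
        refine ⟨inv_mem ha, ?_⟩
        rw [← mul_inv_rev, ha2, inv_one] }
  have hY2 : IsPGroup 2 Y2 := by
    rintro ⟨a, ha⟩
    refine ⟨1, Subtype.ext ?_⟩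
    show a ^ 2 ^ 1 = 1
    rw [pow_one, pow_two]
    exact ha.2
  have hmod := hY2.card_modEq_card_fixedPoints (↥D ⧸ V.subgroupOf D)
  obtain ⟨w0, hw0⟩ := h.exists_ne_one
  have hWeven : 2 ∣ Nat.card (↥D ⧸ V.subgroupOf D) := by
    have h1 : orderOf w0 = 2 := orderOf_eq_prime (by rw [pow_two]; exact h.sq_one w0) hw0
    rw [← h1]
    exact orderOf_dvd_natCard w0
  have hFeven : 2 ∣ Nat.card (MulAction.fixedPoints Y2 (↥D ⧸ V.subgroupOf D)) :=
    (Nat.modEq_zero_iff_dvd.mp ((hmod.symm).trans (Nat.modEq_zero_iff_dvd.mpr hWeven)))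
  have hone : (1 : ↥D ⧸ V.subgroupOf D) ∈ MulAction.fixedPoints Y2 (↥D ⧸ V.subgroupOf D) := by
    intro a
    show (a : MulAut (↥D ⧸ V.subgroupOf D)) 1 = 1
    exact map_one _
  obtain ⟨w, hwF, hw1⟩ : ∃ w ∈ MulAction.fixedPoints Y2 (↥D ⧸ V.subgroupOf D), w ≠ 1 := by
    by_contra hcon
    push Not at hcon
    have : Nat.card (MulAction.fixedPoints Y2 (↥D ⧸ V.subgroupOf D)) = 1 := by
      rw [Nat.card_eq_one_iff_unique]
      refine ⟨⟨fun a b => Subtype.ext ?_⟩, ⟨⟨1, hone⟩⟩⟩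
      rw [hcon a a.2, hcon b b.2]
    rw [this] at hFeven
    omega
  -- the preimage of the fixed points
  let X : Subgroup G :=
    { carrier := {x | ∃ hx : x ∈ D, ∀ a ∈ Y2, a (QuotientGroup.mk ⟨x, hx⟩) = QuotientGroup.mk ⟨x, hx⟩}
      one_mem' := ⟨one_mem _, fun a _ => map_one a⟩
      mul_mem' := by
        rintro x y ⟨hx, hx'⟩ ⟨hy, hy'⟩
        refine ⟨mul_mem hx hy, fun a ha => ?_⟩
        have e : (QuotientGroup.mk (⟨x * y, mul_mem hx hy⟩ : ↥D) : ↥D ⧸ V.subgroupOf D) =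
          QuotientGroup.mk ⟨x, hx⟩ * QuotientGroup.mk ⟨y, hy⟩ := rfl
        rw [e, map_mul, hx' a ha, hy' a ha]
      inv_mem' := by
        rintro x ⟨hx, hx'⟩
        refine ⟨inv_mem hx, fun a ha => ?_⟩
        have e : (QuotientGroup.mk (⟨x⁻¹, inv_mem hx⟩ : ↥D) : ↥D ⧸ V.subgroupOf D) =
          (QuotientGroup.mk ⟨x, hx⟩)⁻¹ := rfl
        rw [e, map_inv, hx' a ha] }
  have hXn : X.Normal := by
    constructor
    rintro x ⟨hx, hx'⟩ g
    refine ⟨hDn.conj_mem x hx g, fun a ha => ?_⟩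
    rw [← rho_mk' D V g x hx]
    have hconj : (rho D V g)⁻¹ * a * rho D V g ∈ Y2 := by
      obtain ⟨⟨α, hα, rfl⟩, ha2⟩ := ha
      refine ⟨⟨g⁻¹ * α * g, ?_, by simp⟩, ?_⟩
      · have := hA.conj_mem α hα g⁻¹
        rwa [inv_inv] at this
      · calc (rho D V g)⁻¹ * rho D V α * rho D V g * ((rho D V g)⁻¹ * rho D V α * rho D V g)
            = (rho D V g)⁻¹ * (rho D V α * rho D V α) * rho D V g := by group
          _ = 1 := by rw [ha2]; group
    have h3 := hx' _ hconj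
    have h4 : a (rho D V g (QuotientGroup.mk ⟨x, hx⟩)) =
        rho D V g (((rho D V g)⁻¹ * a * rho D V g) (QuotientGroup.mk ⟨x, hx⟩)) := by
      simp [MulAut.mul_apply]
    rw [h4, h3]
  have hXD : X ≤ D := fun x hx => hx.1
  have hXeq : X = D := by
    by_contra hne
    have hXV := h.hmin X hXn hXD hne
    induction w using QuotientGroup.induction_on with
    | H x =>
      apply hw1
      rw [mk_eq_one_iff]
      apply hXV
      exact ⟨x.2, fun a ha => hwF ⟨a, ha⟩⟩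
  -- so `Y2` is trivial
  have ha0Y : (a0 : MulAut (↥D ⧸ V.subgroupOf D)) ∈ Y2 := by
    refine ⟨a0.2, ?_⟩
    have := pow_orderOf_eq_one a0
    rw [ha0, pow_two] at this
    exact congrArg Subtype.val this
  have ha01 : (a0 : MulAut (↥D ⧸ V.subgroupOf D)) = 1 := by
    ext w
    induction w using QuotientGroup.induction_on with
    | H x =>
      have hx : (x : G) ∈ X := by rw [hXeq]; exact x.2
      exact hx.2 _ ha0Y
  have : a0 = 1 := Subtype.ext ha01
  rw [this, orderOf_one] at ha0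
  omega

theorem Sec.false [Finite G] (hsol : Group.IsSolvable G) (h : Sec S V D K) : False := by
  obtain ⟨τ, hτ, hτ1⟩ := h.S_not_le
  have hCn : (Subgroup.centralizer (V : Set G)).Normal := inferInstance
  have hCker : ¬ Subgroup.centralizer (V : Set G) ≤ (rho D V).ker := by
    intro hle
    exact hτ1 (MonoidHom.mem_ker.mp (hle (h.L_le (Subgroup.le_normalClosure hτ))))
  obtain ⟨n, hn1, hn2⟩ := exists_ds_step hsol _ _ hCker
  have hAn := ds_normal (Subgroup.centralizer (V : Set G)) n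
  set A := ds (Subgroup.centralizer (V : Set G)) n with hA
  have hAC : A ≤ Subgroup.centralizer (V : Set G) := ds_le _ n
  have hYc : ∀ y ∈ A.map (rho D V), ∀ y' ∈ A.map (rho D V), y * y' = y' * y := by
    rintro _ ⟨a, ha, rfl⟩ _ ⟨b, hb, rfl⟩
    have h1 : ⁅a, b⁆ ∈ (rho D V).ker := hn2 (Subgroup.commutator_mem_commutator ha hb)
    rw [MonoidHom.mem_ker, commutatorElement_def, map_mul, map_mul, map_mul, map_inv, map_inv] at h1
    calc rho D V a * rho D V b
        = (rho D V a * rho D V b * (rho D V a)⁻¹ * (rho D V b)⁻¹) * (rho D V b * rho D V a) := by group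
      _ = rho D V b * rho D V a := by rw [h1, one_mul]
  have hcentQ : ∀ g ∈ Subgroup.centralizer (V : Set G), ∀ w, h.Q (rho D V g w) = h.Q w := by
    intro g hg w
    apply Subtype.ext
    rw [h.Q_rho, ← Subgroup.mem_centralizer_iff.mp hg _ (h.Q w).2]
    group
  refine Cfsg.Agent.Lib.Helper86.OneClassE.endgame h.sq_one h.Q h.Q_eq_one h.Q_surj h.hV3 h.card_W
    ((S : Subgroup G).map (rho D V)) (K.map (rho D V)) (A.map (rho D V))
    (S.isPGroup'.map _) ?_ (h.hS3 hsol) ?_ ?_ h.Ktr hYc (h.odd_of_comm A hYc) ?_ ?_ ?_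
  · rintro _ ⟨s, hs, rfl⟩ w
    exact hcentQ s (h.L_le (Subgroup.le_normalClosure hs)) w
  · exact Odd.of_dvd_nat h.hKodd (Subgroup.card_map_dvd _ _)
  · rintro _ ⟨k, hk, rfl⟩ _ ⟨s, hs, rfl⟩
    refine ⟨k * s * k⁻¹, (Subgroup.mem_normalizer_iff.mp (h.hKn hk) s).mp hs, by simp⟩
  · intro hbot
    exact hn1 ((Subgroup.map_eq_bot_iff _).mp hbot)
  · rintro _ ⟨a, ha, rfl⟩ w
    exact hcentQ a (hAC ha) w
  · rintro _ ⟨s, hs, rfl⟩ _ ⟨a, ha, rfl⟩
    exact ⟨s * a * s⁻¹, hAn.conj_mem a ha s, by simp⟩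

end Cfsg.Agent.Lib.Helper63.OneClass
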