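import Mathlib
import Cfsg.Agent.Lib.Helper63.OCSec
import Cfsg.Agent.Lib.Lead.Cores
import Cfsg.Agent.Lib.Helper73.OneClassA
import Cfsg.Agent.Lib.Helper2.OneClassD

/-!
# Solvable groups with one class of involutions and `O(G) = 1`: the Sylow `2`-subgroup is normal
-/

set_option autoImplicit false

namespace Cfsg.Agent.Lib.Helper63.OneClass

variable {G : Type*} [Group G]

theorem three_le_card [Finite G] (V : Subgroup G) {x y : G} (hx : x ∈ V) (hy : y ∈ V) (hxy : x ≠ y)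
    (hx1 : x ≠ 1) (hy1 : y ≠ 1) : 3 ≤ Nat.card V := by
  have hinj : Function.Injective (![⟨1, V.one_mem⟩, ⟨x, hx⟩, ⟨y, hy⟩] : Fin 3 → V) := by
    intro i j hij
    fin_cases i <;> fin_cases j <;> simp_all [Subtype.ext_iff, eq_comm]
  have := Nat.card_le_card_of_injective _ hinj
  simpa using this

theorem core [Finite G] (hsol : Group.IsSolvable G)
    (hO : ∀ N : Subgroup G, N.Normal → Odd (Nat.card N) → N = ⊥)
    (hconj : ∀ x y : G, x ≠ 1 → x ^ 2 = 1 → y ≠ 1 → y ^ 2 = 1 → IsConj x y)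
    (h2 : ∃ x y : G, x ≠ y ∧ x ≠ 1 ∧ x ^ 2 = 1 ∧ y ≠ 1 ∧ y ^ 2 = 1) (S : Sylow 2 G) :
    (S : Subgroup G).Normal := by
  by_contra hSn
  obtain ⟨x, y, hxy, hx1, hx2, hy1, hy2⟩ := h2
  obtain ⟨V, hVn, hV, hSV⟩ := Cfsg.Agent.Lib.Helper73.OneClass.sylow_centralizes hsol hO hconj ⟨x, hx1, hx2⟩
  obtain ⟨K, hKn, hKodd, hKtr⟩ := exists_K S V hV hconj (hSV S)
  have hLT := exists_odd_not_centralizing hsol hO S hSn
  have hLV : ∀ y ∈ Subgroup.normalClosure ((S : Subgroup G) : Set G), ∀ v ∈ V, y * v = v * y := by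
    have h1 : Subgroup.normalClosure ((S : Subgroup G) : Set G) ≤ Subgroup.centralizer (V : Set G) := by
      apply Subgroup.normalClosure_le_normal
      intro s hs
      rw [SetLike.mem_coe, Subgroup.mem_centralizer_iff]
      intro v hv
      exact (hSV S s hs v hv).symm
    intro y hy v hv
    exact (Subgroup.mem_centralizer_iff.mp (h1 hy) v hv).symm
  obtain ⟨D, hDn, -, hVD, hsq, -, hcen, hmin, hy⟩ := Cfsg.Agent.Lib.Helper2.OneClassD.exists_minimal_section hsol V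
    (Subgroup.normalClosure ((S : Subgroup G) : Set G)) (Cfsg.pCore 2 G) hVn
    Subgroup.normalClosure_normal (Cfsg.Agent.Lib.Helper1.pCore_normal 2) hV hconj hLV
    (Cfsg.Agent.Lib.Helper1.pCore_isPGroup 2) hLT
  have hV3 : 3 ≤ Nat.card V := three_le_card V ((hV x).mpr hx2) ((hV y).mpr hy2) hxy hx1 hy1
  exact Sec.false hsol (S := S) (V := V) (D := D) (K := K)
    ⟨hV, hV3, hSV S, hKn, hKodd, hKtr, hVD, hsq, hcen, hmin, hy⟩

end Cfsg.Agent.Lib.Helper63.OneClass
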